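/-
Project WREATH, step P0c: no involution of `L` lies in a conjugate of `C(L)`.
-/
import Cfsg.Agent.Wr.P0d

set_option autoImplicit false
set_option linter.unusedSectionVars false
open Cfsg Subgroup CL.Even CL.Grp
open scoped commutatorElement

namespace CL.Wr

universe u

namespace P0cAux

variable {G : Type*} [Group G] {Γ : Type*} [Group Γ]

theorem mem_zp {l x : G} (h : l * l = 1) : x ∈ zpowers l ↔ x = 1 ∨ x = l := by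
  have := mem_sup_inv (H := ⊥) h (cent_le_norm _ (mem_cent.2 fun x hx => by rw [mem_bot.1 hx]; simp)) (x := x)
  rw [bot_sup_eq, mem_bot, mem_bot] at this
  rw [this]
  exact or_congr Iff.rfl ⟨fun e => by rw [eq_inv_of_mul_eq_one_left e, inv_eq_of_sq h], fun e => by rw [e, h]⟩

theorem card_zp [Finite G] {l : G} (h : l * l = 1) (h1 : l ≠ 1) : Nat.card (zpowers l) = 2 := by
  have := card_sup_inv (H := ⊥) h (cent_le_norm _ (mem_cent.2 fun x hx => by rw [mem_bot.1 hx]; simp)) (by simpa using h1)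
  rwa [bot_sup_eq, card_bot] at this

/-- The configuration to be excluded. -/
structure Bad (d : Dat Γ) (L L₁ : Subgroup G) (ρ ρ₁ : G → Γ) (l t : G) : Prop where
  r : Rho d L ρ
  r₁ : Rho d L₁ ρ₁
  te : ∀ u ∈ 𝒞(L₁), u * u = 1 → u ≠ 1 → centralizer {u} ≤ 𝒩(L₁)
  od : ∀ y ∈ 𝒞(L), Two y → y ∈ 𝒞(L₁) → y = 1
  en : ¬ L ≤ 𝒞(L₁)
  lL : l ∈ L
  lK : l ∈ 𝒞(L₁)
  l2 : l * l = 1
  lz : ρ l = d.z
  tK : t ∈ 𝒞(L)
  t2 : t * t = 1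
  t1 : t ≠ 1

namespace Bad

variable [Finite G] [Finite Γ] {d : Dat Γ} {Th : Subgroup Γ} {L L₁ : Subgroup G} {ρ ρ₁ : G → Γ} {l t : G}
  (b : Bad d L L₁ ρ ρ₁ l t) (m : Top d Th)
include b m

theorem l1 : l ≠ 1 := fun h => m.ok.z_ne (by rw [← b.lz, h, b.r.mul.one])

theorem cen_l {y : G} (h : y * l = l * y) : y ∈ 𝒩(L₁) := b.te l b.lK b.l2 (b.l1 m) (mem_cent1.2 h)

theorem tN : t ∈ 𝒩(L₁) := b.cen_l m (comm_of_mem b.tK b.lL).symm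

theorem τ1 : ρ₁ t ≠ 1 := fun h => b.t1 (b.od t b.tK (.of_sq b.t2) ((b.r₁.ker t (b.tN m)).1 h))

theorem τ2 : ρ₁ t * ρ₁ t = 1 := b.r₁.mul.sq (b.tN m) b.t2

theorem τ_comm {y : G} (hy : y ∈ L) (hN : y ∈ 𝒩(L₁)) : ρ₁ y * ρ₁ t = ρ₁ t * ρ₁ y :=
  b.r₁.mul.mul_comm hN (b.tN m) (comm_of_mem b.tK hy)

omit m in
theorem mem_N {u y : G} (hu : u ∈ L) (hK : u ∈ 𝒞(L₁)) (h2 : u * u = 1) (h1 : u ≠ 1) (hy : y ∈ L)
    (e : ρ y * ρ u = ρ u * ρ y) : y ∈ 𝒩(L₁) :=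
  b.te u hK h2 h1 (mem_cent1.2 (b.r.comm_lift (Rho.L_le hy) hu (.of_sq h2) e))

theorem mem_N_z {y : G} (hy : y ∈ L) (e : ρ y * d.z = d.z * ρ y) : y ∈ 𝒩(L₁) :=
  b.mem_N b.lL b.lK b.l2 (b.l1 m) hy (by rw [b.lz, e])

omit m in
theorem cen_le_H {u : G} (hu : u ∈ L) (hK : u ∈ 𝒞(L₁)) (h2 : u * u = 1) (h1 : u ≠ 1) :
    d.L ⊓ centralizer {ρ u} ≤ b.r.mul.img (L ⊓ 𝒩(L₁)) := fun x hx => by
  obtain ⟨y, hy, rfl⟩ := b.r.surj x hx.1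
  exact b.r.mul.mem_img_of ⟨hy, b.mem_N hu hK h2 h1 hy (mem_cent1.1 hx.2)⟩ (Rho.L_le hy)

theorem mem_N_H {y : G} (hy : y ∈ L) (h : ρ y ∈ b.r.mul.img (L ⊓ 𝒩(L₁))) : y ∈ 𝒩(L₁) := by
  obtain ⟨x, hx, -, e⟩ := b.r.mul.mem_img.1 h
  have h1 := b.r.cen_of_eq (Rho.L_le hx.1) (Rho.L_le hy) e
  have := mul_mem hx.2 (b.cen_l m (comm_of_mem h1 b.lL).symm)
  rwa [mul_inv_cancel_left] at this

omit m in
theorem norm_img {y : G} (hy : y ∈ L) (hN : y ∈ 𝒩(L₁)) : ρ y ∈ 𝒩(b.r.mul.img (L ⊓ 𝒞(L₁))) :=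
  b.r.mul.img_norm (Rho.L_le hy) (le_norm_inf (L := L ⊓ 𝒩(L₁)) (inf_le_left.trans Rho.L_le)
    (inf_le_right.trans (norm_le_norm_cent L₁)) ⟨hy, hN⟩)

theorem fin (h : d.L ≤ b.r.mul.img (L ⊓ 𝒩(L₁))) : False := by
  have h1 : b.r.mul.img (L ⊓ 𝒞(L₁)) ≤ d.L := b.r.mul.img_le fun x hx _ => b.r.memL x hx.1
  rcases m.normal h1 (fun x hx => by
    obtain ⟨y, hy, rfl⟩ := b.r.surj x hx
    exact b.norm_img hy (b.mem_N_H m hy (h hx))) with h2 | h2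
  · have := b.r.mul.mem_img_of (H := L ⊓ 𝒞(L₁)) ⟨b.lL, b.lK⟩ (Rho.L_le b.lL)
    rw [h2, b.lz] at this
    exact m.ok.z_ne this
  · refine b.en (b.r.le_of_surj fun α hα => ?_)
    obtain ⟨x, hx, -, e⟩ := b.r.mul.mem_img.1 (h2.ge hα)
    exact ⟨x, hx.2, hx.1, e⟩

variable (γ : Gen d) {Q : Subgroup G} (hQ : ∀ x, x ∈ Q ↔ x ∈ L ∧ Two x ∧ ρ x ∈ d.T)
include hQ

theorem QN : Q ≤ 𝒩(L₁) := fun x hx => b.mem_N_z m ((hQ x).1 hx).1 (m.ok.z_T _ ((hQ x).1 hx).2.2)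

omit b m in
theorem QP : IsPGroup 2 Q := isP_of_two fun x hx => ((hQ x).1 hx).2.1

theorem lQ : l ∈ Q := (hQ l).2 ⟨b.lL, .of_sq b.l2, b.lz ▸ m.ok.sa.A_le m.ok.z_A⟩

include γ

theorem Q_inner {x : G} (hx : x ∈ Q) : ρ₁ x ∈ d.L := by
  obtain ⟨h1, h2, h3⟩ := (hQ x).1 hx
  refine b.r₁.mem_L_of_comm m (H := b.r.preL (d.L ⊓ centralizer {d.z})) (fun y hy => ?_)
    (b.r.mem_comm_preL inf_le_left γ.perf h1 h2 ⟨m.ok.T_le_L h3, mem_cent1.2 (m.ok.z_T _ h3)⟩)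
  obtain ⟨h4, h5⟩ := b.r.mem_preL.1 hy
  exact b.mem_N_z m h4 (mem_cent1.1 h5.2)

/-- an element of the second centre -/
theorem mem_D {x : G} (hx : x ∈ Q) (h : ∀ y ∈ Q, ⁅y, x⁆ ∈ zpowers l) : ρ x ∈ d.D := by
  obtain ⟨h1, -, h3⟩ := (hQ x).1 hx
  refine γ.z2 _ h3 fun y hy => ?_
  obtain ⟨w, hw, h4, rfl⟩ := b.r.exists_two (m.ok.T_le_L hy) (.of_mem m.ok.syl.isPGroup hy)
  rw [← b.r.mulL.comm hw h1]
  rcases (mem_zp b.l2).1 (h w ((hQ w).2 ⟨hw, h4, hy⟩)) with e | e <;> rw [e]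
  exacts [Or.inl b.r.mul.one, Or.inr b.lz]

theorem caseA (hc : Nat.card Q = Nat.card d.T) (hA : Q ⊓ 𝒞(L₁) ≤ zpowers l) : False := by
  have hN := b.QN m hQ
  have hP := QP hQ
  have hW := b.r₁.mul.isP_img hP
  have c1 : 64 ≤ Nat.card (b.r₁.mul.img Q) := by
    have h1 := b.r₁.mul.card_img hN
    have h2 : Nat.card (Q ⊓ b.r₁.mul.pre ⊥ : Subgroup G) ≤ 2 := by
      rw [← card_zp b.l2 (b.l1 m)]
      refine card_le_of_le fun x hx => hA ⟨hx.1, ?_⟩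
      obtain ⟨h3, h4⟩ := b.r₁.mul.mem_pre.1 hx.2
      exact (b.r₁.ker x h3).1 h4
    rw [hc, γ.cardT] at h1
    nlinarith
  have hWL : b.r₁.mul.img Q ≤ d.L := b.r₁.mul.img_le fun x hx _ => b.Q_inner m γ hQ hx
  have hWc : ∀ w ∈ b.r₁.mul.img Q, w * ρ₁ t = ρ₁ t * w := fun w hw => by
    obtain ⟨x, hx, h1, rfl⟩ := b.r₁.mul.mem_img.1 hw
    exact b.τ_comm m ((hQ x).1 hx).1 h1
  have τC := b.r₁.mem t (b.tN m)
  by_cases hin : ρ₁ t ∈ d.L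
  swap
  · rcases m.out with h | ⟨σ, o⟩
    · exact hin (h ▸ τC)
    obtain ⟨g, hg, e⟩ := o.cls _ τC hin (b.τ2 m)
    have := m.card_cen_L o (isPGroup_cj hW g⁻¹) fun x hx => by
      rw [mem_cj, inv_inv] at hx
      refine ⟨by simpa [mul_assoc] using mul_mem (mul_mem (inv_mem hg) (hWL hx)) hg, mem_cent1.2 ?_⟩
      have h1 := hWc _ hx
      rw [e] at h1
      calc x * σ = g⁻¹ * (g * x * g⁻¹ * (g * σ * g⁻¹)) * g := by group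
        _ = _ := by rw [h1]; group
    rw [card_cj] at this
    omega
  by_cases hτ : ρ₁ t ∈ b.r₁.mul.img Q
  swap
  · have hn : zpowers (ρ₁ t) ≤ 𝒞(b.r₁.mul.img Q) := zpowers_le.2 (mem_cent.2 hWc)
    have h1 : IsPGroup 2 (b.r₁.mul.img Q ⊔ zpowers (ρ₁ t) : Subgroup Γ) :=
      isPGroup_sup' hW (isPGroup_zpowers (k := 1) (by rw [pow_one, sq, b.τ2 m])) (hn.trans (cent_le_norm _))
    obtain ⟨g, hg, e⟩ := m.conj_T h1 (sup_le hWL (zpowers_le.2 hin))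
    have h2 := two_mul_card_le (le_sup_left : b.r₁.mul.img Q ≤ b.r₁.mul.img Q ⊔ zpowers (ρ₁ t))
      (mem_sup_right (mem_zpowers _)) hτ
    have h3 := eq_of_le_of_card_ge e (by rw [card_cj, γ.cardT]; omega)
    have key : ∀ w ∈ d.L, w ≠ 1 → w ∈ 𝒞(b.r₁.mul.img Q) → w * ρ₁ t = ρ₁ t * w → g * w * g⁻¹ = d.z := by
      intro w hw h4 h5 h6
      refine (m.cenT (m.ok.L_le (mul_mem (mul_mem hg hw) (inv_mem hg))) ?_).resolve_left (by simpa using h4)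
      rw [← h3, ← cj_cent]
      refine conj_mem_cj g ?_
      rw [cent_sup]
      exact ⟨h5, mem_cent.2 fun x hx => mem_cent1.1 ((zpowers_le (H := centralizer {w})).2 (mem_cent1.2 h6.symm) hx)⟩
    obtain ⟨⟨w, hw⟩, h4⟩ := (Subgroup.ne_bot_iff_exists_ne_one).1 (inf_cent_ne_bot hW hW (le_norm_of_le le_rfl)
      (fun h => by rw [h, card_bot] at c1; omega))
    have e1 := key w (hWL hw.1) (fun h => h4 (Subtype.ext h)) hw.2 (hWc w hw.1)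
    have e2 := key _ hin (b.τ1 m) (mem_cent.2 hWc) rfl
    rw [← e1, mul_left_inj, mul_right_inj] at e2
    exact hτ (e2 ▸ hw.1)
  obtain ⟨x', hx', h1, e⟩ := b.r₁.mul.mem_img.1 hτ
  have hx := inv_mem hx'
  have hK : x'⁻¹ * t ∈ 𝒞(L₁) := b.r₁.cen_of_eq h1 (b.tN m) e
  generalize x'⁻¹ = x at hx hK
  have hxK : x ∉ 𝒞(L₁) := fun h => b.τ1 m (b.r₁.eq_one (((𝒞(L₁)).mul_mem_cancel_left h).1 hK))
  obtain ⟨xL, x2, xT⟩ := (hQ x).1 hx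
  have hcm : ∀ y ∈ L, y ∈ 𝒩(L₁) → ⁅y, x⁆ ∈ 𝒞(L₁) := fun y hy hy' => by
    have h2 := mul_mem (conj_mem (norm_le_norm_cent L₁ hy') hK) (inv_mem hK)
    have h3 := comm_of_mem b.tK (inv_mem hy)
    rwa [show y * (x * t) * y⁻¹ * (x * t)⁻¹ = y * x * (t * y⁻¹) * t⁻¹ * x⁻¹ by group, ← h3,
      show y * x * (y⁻¹ * t) * t⁻¹ * x⁻¹ = ⁅y, x⁆ by rw [commutatorElement_def]; group] at h2
  have xD := b.mem_D m γ hQ hx fun y hy =>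
    hA ⟨Q.mul_mem (Q.mul_mem (Q.mul_mem hy hx) (Q.inv_mem hy)) (Q.inv_mem hx), hcm y ((hQ y).1 hy).1 (hN hy)⟩
  obtain ⟨j, hj, jz, hd⟩ := γ.dmove
  obtain ⟨h2, h3, h4⟩ := hd _ xD
    (fun h => hxK (by rw [b.r.two_eq_one xL x2 ((b.r.ker x (Rho.L_le xL)).1 h)]; exact one_mem _))
    (fun h => hxK (by rw [b.r.two_eq xL b.lL x2 (.of_sq b.l2) (h.trans b.lz.symm)]; exact b.lK))
  obtain ⟨y, hy, rfl⟩ := b.r.surj j hj
  have h5 : y * x * y⁻¹ ∈ Q := (hQ _).2 ⟨mul_mem (mul_mem hy xL) (inv_mem hy), x2.conj y, by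
    rw [b.r.mulL.conj hy xL]; exact (d.T.mul_mem_cancel_right xT).1 h2⟩
  have h6 : ρ ⁅y, x⁆ = ρ y * ρ x * (ρ y)⁻¹ * ρ x := by
    rw [b.r.mulL.comm hy xL, commutatorElement_def, m.ok.A_inv (m.ok.D_le xD)]
  rcases (mem_zp b.l2).1 (hA ⟨Q.mul_mem h5 (Q.inv_mem hx), hcm y hy (b.mem_N_z m hy jz)⟩) with e | e
  · exact h3 (by rw [← h6, commutatorElement_def, e, b.r.mul.one])
  · exact h4 (by rw [← h6, commutatorElement_def, e, b.lz])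

theorem caseB (hB : ¬ Q ⊓ 𝒞(L₁) ≤ zpowers l) : False := by
  have hN := b.QN m hQ
  have hP := QP hQ
  have hn : Q ≤ 𝒩(Q ⊓ 𝒞(L₁)) := le_norm_inf (le_norm_of_le le_rfl) (hN.trans (norm_le_norm_cent L₁))
  obtain ⟨i, h1, h2⟩ := exists_iter_not_le (exists_iter_eq_bot (hP.to_le inf_le_left) hP hn) hB
  obtain ⟨x, hx, hx'⟩ := SetLike.not_le_iff_exists.1 h1
  obtain ⟨xQ, xK⟩ := iter_le hn i hx
  have xD := b.mem_D m γ hQ xQ fun y hy => by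
    rw [← commutatorElement_inv]; exact inv_mem (h2 (commutator_mem_commutator hx hy))
  obtain ⟨xL, x2, -⟩ := (hQ x).1 xQ
  have lD : zpowers d.z ≤ d.D ⊓ b.r.mul.img (L ⊓ 𝒞(L₁)) :=
    zpowers_le.2 ⟨m.ok.z_mem, b.lz ▸ b.r.mul.mem_img_of ⟨b.lL, b.lK⟩ (Rho.L_le b.lL)⟩
  have h3 := two_mul_card_le lD ⟨xD, b.r.mul.mem_img_of ⟨xL, xK⟩ (Rho.L_le xL)⟩ fun h => hx' (by
    rcases (mem_zp m.ok.z_sq).1 h with e | e
    · rw [b.r.two_eq_one xL x2 ((b.r.ker x (Rho.L_le xL)).1 e)]; exact one_mem _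
    · rw [b.r.two_eq xL b.lL x2 (.of_sq b.l2) (e.trans b.lz.symm)]; exact mem_zpowers l)
  rw [card_zp m.ok.z_sq m.ok.z_ne] at h3
  have h4 := eq_of_le_of_card_ge (inf_le_left : d.D ⊓ b.r.mul.img (L ⊓ 𝒞(L₁)) ≤ d.D) (by rw [γ.cardD]; omega)
  have key : ∀ u ∈ b.r.mul.img (L ⊓ 𝒞(L₁)), u * u = 1 → u ≠ 1 →
      d.L ⊓ centralizer {u} ≤ b.r.mul.img (L ⊓ 𝒩(L₁)) := fun u hu u2 u1 => by
    obtain ⟨y, hy, -, rfl⟩ := b.r.mul.mem_img.1 hu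
    obtain ⟨w, hw, w2, e⟩ := b.r.exists_inv (b.r.memL y hy.1) u2
    rw [← e] at u1 ⊢
    exact b.cen_le_H hw (b.r.mem_of_eq (H := L ⊓ 𝒞(L₁)) inf_le_left hw (.of_sq w2) hy e.symm).2 w2
      fun h => u1 (by rw [h, b.r.mul.one])
  have hH : ∀ u ∈ d.D, u ≠ 1 → d.L ⊓ centralizer {u} ≤ b.r.mul.img (L ⊓ 𝒩(L₁)) := fun u hu =>
    key u (h4.ge hu).2 (m.ok.sa.sq u (m.ok.D_le hu))
  rcases γ.big with h | ⟨hC, h5, hA, hL, e, he, e5, hb⟩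
  · exact b.fin m (h _ hH)
  have hA' := hA _ hH
  obtain ⟨g, hg, eg⟩ := γ.one _ (hC ▸ b.r₁.mem t (b.tN m)) (b.τ2 m) (b.τ1 m)
  obtain ⟨y, hy, rfl⟩ := b.r.surj e (m.ok.sa.H_le he)
  have yN := b.mem_N_H m hy (hA' he)
  have h6 : g⁻¹ * ρ₁ y * g ∈ d.L ⊓ centralizer {d.z} := by
    refine ⟨d.L.mul_mem (d.L.mul_mem (d.L.inv_mem hg) (hC ▸ b.r₁.mem y yN)) hg, mem_cent1.2 ?_⟩
    have h7 := b.τ_comm m hy yN
    rw [eg] at h7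
    calc g⁻¹ * ρ₁ y * g * d.z = g⁻¹ * (ρ₁ y * (g * d.z * g⁻¹)) * g := by group
      _ = _ := by rw [h7]; group
  have h7 : ¬ 5 ∣ orderOf (ρ₁ y) := fun h => h5 (h.trans (by
    have := orderOf_dvd_natCard _ h6
    rwa [show g⁻¹ * ρ₁ y * g = MulAut.conj g⁻¹ (ρ₁ y) by simp, MulEquiv.orderOf_eq] at this))
  have h8 : ρ y ∈ b.r.mul.img (L ⊓ 𝒞(L₁)) := by
    refine mem_of_pow_mem_of_coprime (n := orderOf (ρ₁ y))
      (by rw [e5]; exact (Nat.Prime.coprime_iff_not_dvd (by norm_num)).2 h7) ?_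
    rw [← b.r.mulL.pow hy]
    refine b.r.mul.mem_img_of ⟨pow_mem hy _, (b.r₁.ker _ (pow_mem yN _)).1 ?_⟩ (Rho.L_le (pow_mem hy _))
    rw [b.r₁.mul.pow yN, pow_orderOf_eq_one]
  have h9 := hb _ h8 fun a ha => by
    obtain ⟨w, hw, rfl⟩ := b.r.surj a (m.ok.sa.H_le ha)
    exact b.norm_img hw (b.mem_N_H m hw (hA' ha))
  exact b.fin m (hL.trans (sup_le hA' (key _ h9 (m.ok.sb.sq _ m.ok.b_mem) fun h => m.ok.b_not (h ▸ one_mem _))))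

end Bad

end P0cAux

open P0cAux in
theorem p0c : P0c.{u} := by
  intro Γ _ _ d Th G _ _ L ρ m γ r s l hl l2 l1 g hg
  obtain ⟨x₀, hx₀, e⟩ := γ.one _ (r.memL l hl) (r.mulL.sq hl l2) fun h =>
    l1 (r.two_eq_one hl (.of_sq l2) ((r.ker l (Rho.L_le hl)).1 h))
  obtain ⟨x, hx, rfl⟩ := r.surj x₀ hx₀
  have hl' : x⁻¹ * l * x ∈ L := mul_mem (mul_mem (inv_mem hx) hl) hx
  have l2' : x⁻¹ * l * x * (x⁻¹ * l * x) = 1 := by
    rw [show x⁻¹ * l * x * (x⁻¹ * l * x) = x⁻¹ * (l * l) * x by group, l2]; group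
  have lz : ρ (x⁻¹ * l * x) = d.z := by rw [r.mulL.conj' hx hl, e]; group
  have hg' : x⁻¹ * l * x ∈ cj (x⁻¹ * g) 𝒞(L) := by
    rw [mem_cj] at hg ⊢
    rwa [show (x⁻¹ * g)⁻¹ * (x⁻¹ * l * x) * (x⁻¹ * g) = g⁻¹ * l * g by group]
  generalize x⁻¹ * l * x = l' at hl' l2' lz hg'
  generalize x⁻¹ * g = g' at hg'
  have hn : g' ∉ 𝒩(L) := fun h => by
    rw [cj_eq (norm_le_norm_cent L h)] at hg'
    exact m.ok.z_ne (by rw [← lz]; exact r.eq_one hg')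
  obtain ⟨t, ht⟩ := exists_prime_orderOf_dvd_card' (G := 𝒞(L)) 2 s.2.1.1.two_dvd
  have t2 : (t : G) * t = 1 := by rw [← sq, ← coe_pow, ← ht, pow_orderOf_eq_one, coe_one]
  have t1 : (t : G) ≠ 1 := fun h => by rw [show t = 1 from Subtype.ext h] at ht; simp at ht
  have b : Bad d L (cj g' L) ρ (fun x => ρ (g'⁻¹ * x * g')) l' t :=
    { r := r, r₁ := r.conj g', lL := hl', lK := cj_cent g' L ▸ hg', l2 := l2', lz := lz, tK := t.2, t2 := t2, t1 := t1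
      te := fun u hu u2 u1 c hc => by
        rw [← cj_norm, mem_cj]
        rw [← cj_cent, mem_cj] at hu
        refine P0dAux.cen_le s hu ?_ (fun h => u1 ?_) (mem_cent1.2 ?_)
        · rw [show g'⁻¹ * u * g' * (g'⁻¹ * u * g') = g'⁻¹ * (u * u) * g' by group, u2]; group
        · rw [show u = g' * (g'⁻¹ * u * g') * g'⁻¹ by group, h]; group
        · rw [show g'⁻¹ * c * g' * (g'⁻¹ * u * g') = g'⁻¹ * (c * u) * g' by group, mem_cent1.1 hc]; group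
      od := fun y hy y2 h => P0dAux.te s hy y2 hn (by rwa [← cj_cent, mem_cj] at h)
      en := fun h => s.2.2.1 g' (fun e => hn (cj_eq_iff_mem.1 e)) (by
        rw [commutator_comm]; exact commutator_eq_bot_iff'.2 h) }
  obtain ⟨Q, hQ, hc, -⟩ := r.exists_lift m.ok.T_le_L m.ok.syl.isPGroup
  by_cases h : Q ⊓ 𝒞(cj g' L) ≤ zpowers l'
  exacts [b.caseA m γ hQ hc h, b.caseB m γ hQ h]

end CL.Wr
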